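import Cfsg.Agent.Lib.Helper79.CS3.EndDefs

/-!
# CS3 (S4284), part [END], package [II4]

CASE II with `m = p`: `P / (P ⊓ Z(G))` is elementary abelian of order `p ^ 2`.
Hypotheses taken: `PkgE4`, `PkgII12`.
-/

set_option autoImplicit false

namespace Cfsg.Agent.Lib.Helper45.CS3

open Cfsg.Agent.Lib.Helper81.CS3 Cfsg.Agent.Lib.Helper79.CS3

universe u

/-- [II4]. -/
theorem pkgII4_of (hE4 : PkgE4.{u}) (hII12 : PkgII12.{u}) : PkgII4.{u} := by
  intro G _ _ m n Q P p hS hII hmp
  have hp : p.Prime := hS.pp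
  have hfact : Fact p.Prime := ⟨hp⟩
  obtain ⟨hnc, -⟩ := hE4 m n Q P hS.s0
  -- `w1 ∈ P` not central
  obtain ⟨w1, hw1P, hw1Q⟩ : ∃ w1 ∈ P, w1 ∉ Subgroup.centralizer (Q : Set G) := by
    by_contra hcon
    push Not at hcon
    exact hnc hcon
  have hw1Z : w1 ∉ Subgroup.center G := fun h => hw1Q (Subgroup.center_le_centralizer _ h)
  obtain ⟨h1, hab1, -⟩ := hII12 m n Q P p hS hII w1 hw1P hw1Z
  rw [hmp] at h1
  -- `w2 ∈ P` not commuting with `w1`
  obtain ⟨w2, hw2P, hw2C⟩ : ∃ w2 ∈ P, w2 ∉ Subgroup.centralizer ({w1} : Set G) := by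
    by_contra hcon
    push Not at hcon
    have : (Subgroup.centralizer ({w1} : Set G)).relIndex P = 1 :=
      Subgroup.relIndex_eq_one.mpr hcon
    rw [this] at h1
    exact hp.one_lt.ne h1
  have hw2Z : w2 ∉ Subgroup.center G := fun h => hw2C (Subgroup.center_le_centralizer _ h)
  obtain ⟨h2, hab2, -⟩ := hII12 m n Q P p hS hII w2 hw2P hw2Z
  rw [hmp] at h2
  have hw21 : w1 * w2 ≠ w2 * w1 := by
    intro h
    apply hw2C
    rw [Subgroup.mem_centralizer_iff]
    intro x hx
    rw [Set.mem_singleton_iff] at hx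
    rw [hx]; exact h
  -- common centralizer is central
  have hkey : ∀ z ∈ P, z * w1 = w1 * z → z * w2 = w2 * z → z ∈ Subgroup.center G := by
    intro z hzP hz1 hz2
    by_contra hzZ
    obtain ⟨-, habz, -⟩ := hII12 m n Q P p hS hII z hzP hzZ
    exact hw21 (habz w1 hw1P hz1.symm w2 hw2P hz2.symm)
  have hsub : (Subgroup.centralizer ({w1} : Set G) ⊓ Subgroup.centralizer ({w2} : Set G)) ⊓ P
      = P ⊓ Subgroup.center G := by
    ext z
    simp only [Subgroup.mem_inf, Subgroup.mem_centralizer_iff, Set.mem_singleton_iff,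
      forall_eq]
    constructor
    · rintro ⟨⟨hz1, hz2⟩, hzP⟩
      exact ⟨hzP, hkey z hzP hz1.symm hz2.symm⟩
    · rintro ⟨hzP, hzZ⟩
      exact ⟨⟨Subgroup.mem_center_iff.mp hzZ w1, Subgroup.mem_center_iff.mp hzZ w2⟩, hzP⟩
  -- the index computation
  obtain ⟨k, hk⟩ := IsPGroup.iff_card.mp hS.pg
  have hrel := Subgroup.relIndex_inf_mul_relIndex (Subgroup.centralizer ({w1} : Set G))
    (Subgroup.centralizer ({w2} : Set G)) P
  have hle := Subgroup.relIndex_inf_le (H := Subgroup.centralizer ({w1} : Set G))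
    (K := Subgroup.centralizer ({w2} : Set G)) (L := P)
  rw [h1, h2] at hle
  rw [h2] at hrel
  obtain ⟨x, hx⟩ : ∃ x, x = (Subgroup.centralizer ({w1} : Set G)).relIndex
      (Subgroup.centralizer ({w2} : Set G) ⊓ P) := ⟨_, rfl⟩
  rw [← hx] at hrel
  have hx1 : x ≠ 1 := by
    intro hx1
    rw [hx1] at hx
    have hle2 := Subgroup.relIndex_eq_one.mp hx.symm
    apply hw21
    have hmem : w2 ∈ Subgroup.centralizer ({w2} : Set G) ⊓ P := by
      refine Subgroup.mem_inf.mpr ⟨?_, hw2P⟩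
      rw [Subgroup.mem_centralizer_iff]
      intro y hy
      rw [Set.mem_singleton_iff] at hy
      rw [hy]
    exact Subgroup.mem_centralizer_iff.mp (hle2 hmem) w1 rfl
  have hxdvd : x ∣ p ^ k := by
    rw [hx, ← hk]
    exact (Subgroup.relIndex_dvd_card _ _).trans (Subgroup.card_dvd_of_le inf_le_right)
  obtain ⟨e, -, he⟩ := (Nat.dvd_prime_pow hp).mp hxdvd
  have he0 : e ≠ 0 := by
    intro h0; rw [h0, pow_zero] at he; exact hx1 he
  have hxp : x = p := by
    have hpx : p ∣ x := by rw [he]; exact dvd_pow_self p he0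
    have hxpos : 0 < x := by rw [he]; exact pow_pos hp.pos e
    have hxle : x ≤ p := by
      rw [← hrel] at hle
      exact Nat.le_of_mul_le_mul_right hle hp.pos
    exact le_antisymm hxle (Nat.le_of_dvd hxpos hpx)
  rw [hxp] at hrel
  have hZrel : (Subgroup.center G).relIndex P = p * p := by
    rw [← Subgroup.inf_relIndex_left (H := P) (K := Subgroup.center G), ← hsub,
      Subgroup.inf_relIndex_right, ← hrel]
  have hcardP : Nat.card P = p ^ 2 * Nat.card ↥(P ⊓ Subgroup.center G) := by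
    have h3 := Subgroup.relIndex_mul_relIndex ⊥ (P ⊓ Subgroup.center G) P bot_le inf_le_left
    rw [Subgroup.relIndex_bot_left, Subgroup.relIndex_bot_left, Subgroup.inf_relIndex_left,
      hZrel] at h3
    rw [← h3]; ring
  -- the quotient `P / (P ⊓ Z(G))`
  have hNn : ((Subgroup.center G).subgroupOf P).Normal := inferInstance
  have hcardq : Nat.card (↥P ⧸ (Subgroup.center G).subgroupOf P) = p ^ 2 := by
    have : Nat.card (↥P ⧸ (Subgroup.center G).subgroupOf P) = (Subgroup.center G).relIndex P :=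
      rfl
    rw [this, hZrel, pow_two]
  have hcomm := (IsPGroup.isMulCommutative_of_card_eq_prime_sq hcardq).is_comm.comm
  refine ⟨?_, ?_, hcardP⟩
  · intro g hg h hh
    have h4 : ((⟨g, hg⟩ * ⟨h, hh⟩ * (⟨g, hg⟩ : ↥P)⁻¹ * (⟨h, hh⟩ : ↥P)⁻¹ : ↥P) :
        ↥P ⧸ (Subgroup.center G).subgroupOf P) = 1 := by
      rw [QuotientGroup.mk_mul, QuotientGroup.mk_mul, QuotientGroup.mk_mul, QuotientGroup.mk_inv,
        QuotientGroup.mk_inv, hcomm (((⟨g, hg⟩ : ↥P) : ↥P ⧸ (Subgroup.center G).subgroupOf P))]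
      simp
    rw [QuotientGroup.eq_one_iff] at h4
    exact Subgroup.mem_subgroupOf.mp h4
  · intro g hg
    have hord : orderOf (((⟨g, hg⟩ : ↥P) : ↥P ⧸ (Subgroup.center G).subgroupOf P)) ∣ p ^ 2 := by
      rw [← hcardq]; exact orderOf_dvd_natCard _
    obtain ⟨e, he2, heq⟩ := (Nat.dvd_prime_pow hp).mp hord
    have he1 : e ≤ 1 := by
      by_contra hcon
      have he2' : e = 2 := by omega
      rw [he2', ← hcardq] at heq
      have hcyc : IsCyclic (↥P ⧸ (Subgroup.center G).subgroupOf P) :=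
        isCyclic_of_orderOf_eq_card _ heq
      have hker : (QuotientGroup.mk' ((Subgroup.center G).subgroupOf P)).ker ≤
          Subgroup.center ↥P := by
        rw [QuotientGroup.ker_mk']
        intro z hz
        rw [Subgroup.mem_center_iff]
        intro y
        have hz' : (z : G) ∈ Subgroup.center G := Subgroup.mem_subgroupOf.mp hz
        exact Subtype.ext (Subgroup.mem_center_iff.mp hz' (y : G))
      have h5 := (MonoidHom.isMulCommutative_of_isCyclic_of_ker_le_center
        (QuotientGroup.mk' ((Subgroup.center G).subgroupOf P)) hker).is_comm.comm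
          ⟨w1, hw1P⟩ ⟨w2, hw2P⟩
      exact hw21 (congrArg Subtype.val h5)
    have hpow : (((⟨g, hg⟩ : ↥P) : ↥P ⧸ (Subgroup.center G).subgroupOf P)) ^ p = 1 := by
      rw [← orderOf_dvd_iff_pow_eq_one, heq]
      have h6 : p ^ e ∣ p ^ 1 := pow_dvd_pow p he1
      rwa [pow_one] at h6
    rw [← QuotientGroup.mk_pow, QuotientGroup.eq_one_iff] at hpow
    exact Subgroup.mem_subgroupOf.mp hpow

end Cfsg.Agent.Lib.Helper45.CS3
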