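import Cfsg.Agent.Lib.Helper41.CS3.GoodDefs

/-!
# CS3 (S4284), part [GOOD], package [MSA]

For `y` as in `Z2 s S y`: `σ ^ s` and the commutators of `S` centralize `y`.
-/

set_option autoImplicit false

namespace Cfsg.Agent.Lib.Helper45.CS3

open Cfsg.Agent.Lib.Helper41.CS3

universe u

/-- [MSA]. -/
theorem pkgMsa : PkgMsa.{u} := by
  intro G _ _ s hs S y hZ
  have hy : y ∈ S := hZ.mem
  -- `Z g := g y g⁻¹ y⁻¹`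
  have hZc : ∀ g ∈ S, ∀ τ ∈ S, (g * y * g⁻¹ * y⁻¹) * τ = τ * (g * y * g⁻¹ * y⁻¹) := hZ.comm
  have hZmem : ∀ g ∈ S, g * y * g⁻¹ * y⁻¹ ∈ S := fun g hg =>
    S.mul_mem (S.mul_mem (S.mul_mem hg hy) (S.inv_mem hg)) (S.inv_mem hy)
  have hmul : ∀ g ∈ S, ∀ h ∈ S, (g * h) * y * (g * h)⁻¹ * y⁻¹ =
      (h * y * h⁻¹ * y⁻¹) * (g * y * g⁻¹ * y⁻¹) := by
    intro g hg h hh
    have e1 : (g * h) * y * (g * h)⁻¹ * y⁻¹ =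
        g * (h * y * h⁻¹ * y⁻¹) * g⁻¹ * (g * y * g⁻¹ * y⁻¹) := by group
    rw [e1, ← hZc h hh g hg]
    group
  have hone : (1 : G) * y * (1 : G)⁻¹ * y⁻¹ = 1 := by group
  have hinv : ∀ g ∈ S, (g⁻¹ * y * g⁻¹⁻¹ * y⁻¹) * (g * y * g⁻¹ * y⁻¹) = 1 := by
    intro g hg
    rw [← hmul g hg g⁻¹ (S.inv_mem hg), mul_inv_cancel]
    exact hone
  have hcent : ∀ g : G, g * y * g⁻¹ * y⁻¹ = 1 → g ∈ Cn y := by
    intro g h1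
    rw [Subgroup.mem_centralizer_iff]
    intro x hx
    rw [Set.mem_singleton_iff] at hx
    rw [hx]
    have h2 : g * y * g⁻¹ = y := mul_inv_eq_one.mp h1
    exact (mul_inv_eq_iff_eq_mul.mp h2).symm
  constructor
  · intro σ hσ
    apply hcent
    -- `Z (σ ^ k) = (Z σ) ^ k`
    have hpow : ∀ k : ℕ, (σ ^ k) * y * (σ ^ k)⁻¹ * y⁻¹ = (σ * y * σ⁻¹ * y⁻¹) ^ k := by
      intro k
      induction k with
      | zero => rw [pow_zero, pow_zero]; exact hone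
      | succ k ih =>
        rw [pow_succ σ k, hmul (σ ^ k) (S.pow_mem hσ k) σ hσ, ih, pow_succ']
    rw [hpow s]
    -- `(Z σ) ^ s = 1`
    have hcomm : Commute (σ * y * σ⁻¹ * y⁻¹) y := hZc σ hσ y hy
    have e1 : (σ * y * σ⁻¹ * y⁻¹ * y) ^ s = (σ * y * σ⁻¹ * y⁻¹) ^ s * y ^ s := hcomm.mul_pow s
    have e2 : σ * y * σ⁻¹ * y⁻¹ * y = σ * y * σ⁻¹ := by group
    have e3 : (σ * y * σ⁻¹) ^ s = σ * y ^ s * σ⁻¹ := conj_pow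
    have e4 : σ * y ^ s * σ⁻¹ = y ^ s := by
      rw [← hZ.pow σ hσ, mul_inv_cancel_right]
    rw [e2, e3, e4] at e1
    have e5 : (σ * y * σ⁻¹ * y⁻¹) ^ s * y ^ s = 1 * y ^ s := by rw [one_mul]; exact e1.symm
    exact mul_right_cancel e5
  · intro σ hσ τ hτ
    apply hcent
    have hσi : σ⁻¹ ∈ S := S.inv_mem hσ
    have hτi : τ⁻¹ ∈ S := S.inv_mem hτ
    rw [hmul (σ * τ * σ⁻¹) (S.mul_mem (S.mul_mem hσ hτ) hσi) τ⁻¹ hτi,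
      hmul (σ * τ) (S.mul_mem hσ hτ) σ⁻¹ hσi, hmul σ hσ τ hτ]
    have hc1 : (τ * y * τ⁻¹ * y⁻¹) * (σ * y * σ⁻¹ * y⁻¹) =
        (σ * y * σ⁻¹ * y⁻¹) * (τ * y * τ⁻¹ * y⁻¹) :=
      hZc τ hτ _ (hZmem σ hσ)
    rw [hc1, ← mul_assoc (σ⁻¹ * y * σ⁻¹⁻¹ * y⁻¹), hinv σ hσ, one_mul, hinv τ hτ]

end Cfsg.Agent.Lib.Helper45.CS3
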