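import Cfsg.Agent.Lib.Helper81.CS3.NGDefs

/-!
# CS3 (S4284), package [NOR]

`m` prime, `b` a non-central `m`-element of type (ii): the `m'`-elements of `C(b)` are closed
under `G`-conjugation (inside `C(b)`).
-/

set_option autoImplicit false

namespace Cfsg.Agent.Lib.Helper45.CS3

open Cfsg.Agent.Lib.Helper81.CS3

universe u

/-- If `P` is a `p`-subgroup not contained in a subgroup `C` of index `p`, then `G = P C`. -/
theorem cs3_factor {G : Type u} [Group G] [Finite G] {p : ℕ} (hp : p.Prime) (P C : Subgroup G)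
    (hP : IsPGroup p P) (hC : C.index = p) (hPC : ¬ P ≤ C) (g : G) :
    ∃ σ ∈ P, σ⁻¹ * g ∈ C := by
  have hfact : Fact p.Prime := ⟨hp⟩
  obtain ⟨t, ht⟩ := hP.card_orbit (α := G ⧸ C) ((1 : G) : G ⧸ C)
  have hle : Nat.card (MulAction.orbit P (((1 : G) : G ⧸ C))) ≤ Nat.card (G ⧸ C) :=
    Nat.card_le_card_of_injective _ Subtype.val_injective
  have hidx : Nat.card (G ⧸ C) = p := hC
  have ht0 : t ≠ 0 := by
    intro h0
    rw [h0, pow_zero] at ht
    apply hPC
    intro σ hσ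
    have hsub : Subsingleton (MulAction.orbit P (((1 : G) : G ⧸ C))) :=
      (Nat.card_eq_one_iff_unique.mp ht).1
    have h1 : (⟨((1 : G) : G ⧸ C), MulAction.mem_orbit_self _⟩ :
        MulAction.orbit P (((1 : G) : G ⧸ C))) =
        ⟨(⟨σ, hσ⟩ : P) • ((1 : G) : G ⧸ C), MulAction.mem_orbit _ _⟩ := Subsingleton.elim _ _
    have h2 : ((1 : G) : G ⧸ C) = ((σ * 1 : G) : G ⧸ C) := congrArg Subtype.val h1
    rw [QuotientGroup.eq] at h2
    simpa using h2
  have ht1 : t = 1 := by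
    rcases Nat.lt_or_ge t 2 with h | h
    · omega
    · exfalso
      have h1 : p ^ 2 ≤ p ^ t := Nat.pow_le_pow_right hp.pos h
      have h2 : p ^ t ≤ p := by rw [← ht, ← hidx]; exact hle
      have h3 : p * 2 ≤ p ^ 2 := by
        rw [pow_two]; exact Nat.mul_le_mul_left p hp.two_le
      have := hp.pos
      omega
  rw [ht1, pow_one] at ht
  have huniv : MulAction.orbit P (((1 : G) : G ⧸ C)) = Set.univ := by
    rw [Set.eq_univ_iff_ncard, ← Nat.card_coe_set_eq, ht, hidx]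
  have hg : ((g : G) : G ⧸ C) ∈ MulAction.orbit P (((1 : G) : G ⧸ C)) := by
    rw [huniv]; exact Set.mem_univ _
  obtain ⟨σ, hσ⟩ := hg
  refine ⟨σ, σ.2, ?_⟩
  have h2 : (((σ : G) * 1 : G) : G ⧸ C) = ((g : G) : G ⧸ C) := hσ
  rw [QuotientGroup.eq] at h2
  simpa using h2

/-- [NOR]. -/
theorem pkgNor (hStr : PkgStr.{u}) : PkgNor.{u} := by
  intro G _ _ m n hyp hng hm b hb hII u g hub hum
  by_cases huc : u ∈ Subgroup.center G
  · have h1 : g * u * g⁻¹ = u := by
      have := Subgroup.mem_center_iff.mp huc g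
      rw [this, mul_inv_cancel_right]
    rw [h1]; exact hub
  have hrange := hyp.2.2.2.2
  have hmem : idx u ∈ ({1, m, m * n} : Set ℕ) := by rw [← hrange]; exact ⟨u, rfl⟩
  have hu1 : idx u ≠ 1 := by
    intro h1
    apply huc
    have htop : Subgroup.centralizer ({u} : Set G) = ⊤ := Subgroup.index_eq_one.mp h1
    rw [Subgroup.mem_center_iff]
    intro x
    have hx : x ∈ Subgroup.centralizer ({u} : Set G) := htop ▸ Subgroup.mem_top x
    exact (Subgroup.mem_centralizer_iff.mp hx u rfl).symm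
  have hum' : idx u = m := by
    rcases hmem with h | h | h
    · exact absurd h hu1
    · exact h
    · exact absurd h (hII u hub hum)
  obtain ⟨hidxb, Sb, Ab, hSb, hAb, hcent, hcard, ⟨j, hj⟩, hcop⟩ := hStr m n hyp hng m b hb
  have hfact : Fact m.Prime := ⟨hm⟩
  have hSbp : IsPGroup m Sb := IsPGroup.of_card hj
  obtain ⟨P, hSP⟩ := hSbp.exists_le_sylow
  have hmn : m.Coprime n := hyp.2.2.2.1
  -- `|P| = m^(j+1)`
  obtain ⟨t, ht⟩ := IsPGroup.iff_card.mp P.isPGroup'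
  have hGc : Nat.card G = m ^ (j + 1) * (Nat.card Ab * n) := by
    rw [← hcard, hj, pow_succ]; ring
  have hcc : (Nat.card Ab * n).Coprime m := Nat.Coprime.mul_left hcop hmn.symm
  have hnd : ¬ m ∣ (P : Subgroup G).index := P.not_dvd_index
  have hci : ((P : Subgroup G).index).Coprime m :=
    ((Nat.Prime.coprime_iff_not_dvd hm).mpr hnd).symm
  have ht1 : t = j + 1 := by
    apply le_antisymm
    · have h1 : m ^ t ∣ m ^ (j + 1) * (Nat.card Ab * n) := by
        rw [← hGc, ← ht]; exact Subgroup.card_subgroup_dvd_card _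
      have h2 : m ^ t ∣ m ^ (j + 1) :=
        (Nat.Coprime.pow_left t hcc.symm).dvd_of_dvd_mul_right h1
      exact (Nat.pow_dvd_pow_iff_le_right hm.one_lt).mp h2
    · have h1 : m ^ (j + 1) ∣ m ^ t * (P : Subgroup G).index := by
        rw [← ht, Subgroup.card_mul_index, hGc]; exact dvd_mul_right _ _
      have h2 : m ^ (j + 1) ∣ m ^ t :=
        (Nat.Coprime.pow_left (j + 1) hci.symm).dvd_of_dvd_mul_right h1
      exact (Nat.pow_dvd_pow_iff_le_right hm.one_lt).mp h2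
  rw [ht1] at ht
  -- `S_b` has index `m` in `P`, hence is normal in `P`
  have hrel : Sb.relIndex (P : Subgroup G) = m := by
    have h1 := Subgroup.relIndex_mul_relIndex ⊥ Sb (P : Subgroup G) bot_le hSP
    rw [Subgroup.relIndex_bot_left, Subgroup.relIndex_bot_left, hj, ht, pow_succ] at h1
    exact Nat.eq_of_mul_eq_mul_left (pow_pos hm.pos j) h1
  have hnorm : (Sb.subgroupOf (P : Subgroup G)).Normal := by
    apply Subgroup.normal_of_index_eq_minFac_card
    have h1 : (Sb.subgroupOf (P : Subgroup G)).index = m := hrel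
    rw [h1, ht, Nat.Prime.pow_minFac hm (Nat.succ_ne_zero j)]
  -- `P` is not contained in `C(u)`
  have hPC : ¬ (P : Subgroup G) ≤ Subgroup.centralizer ({u} : Set G) := by
    intro hle
    have h1 := Subgroup.index_dvd_of_le hle
    have h2 : (Subgroup.centralizer ({u} : Set G)).index = m := hum'
    rw [h2] at h1
    exact hnd h1
  obtain ⟨σ, hσ, hc⟩ := cs3_factor hm (P : Subgroup G) (Subgroup.centralizer ({u} : Set G))
    P.isPGroup' hum' hPC g
  have hcu : u * (σ⁻¹ * g) = (σ⁻¹ * g) * u := Subgroup.mem_centralizer_iff.mp hc u rfl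
  have hg : g * u * g⁻¹ = σ * u * σ⁻¹ := by
    have h1 : g = σ * (σ⁻¹ * g) := by group
    have h2 : g * u * g⁻¹ = σ * ((σ⁻¹ * g) * u) * (σ⁻¹ * g)⁻¹ * σ⁻¹ := by group
    rw [h2, ← hcu]; group
  have hbS : b ∈ Sb := (hSb b).mpr ⟨Commute.refl b, hb.2.2.1⟩
  have hσ' : σ⁻¹ ∈ (P : Subgroup G) := Subgroup.inv_mem _ hσ
  have hconj := hnorm.conj_mem ⟨b, hSP hbS⟩ (Subgroup.mem_subgroupOf.mpr hbS) ⟨σ⁻¹, hσ'⟩
  have hb2 : σ⁻¹ * b * σ⁻¹⁻¹ ∈ Sb := Subgroup.mem_subgroupOf.mp hconj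
  rw [inv_inv] at hb2
  have hb2c : Commute (σ⁻¹ * b * σ) b := ((hSb _).mp hb2).1
  have hb2u : Commute (σ⁻¹ * b * σ) u := hcent u ((hAb u).mpr ⟨hub, hum⟩) _ hb2c
  have h2 : (σ⁻¹ * b * σ) * u = u * (σ⁻¹ * b * σ) := hb2u
  rw [hg]
  show (σ * u * σ⁻¹) * b = b * (σ * u * σ⁻¹)
  calc (σ * u * σ⁻¹) * b = σ * (u * (σ⁻¹ * b * σ)) * σ⁻¹ := by group
    _ = σ * ((σ⁻¹ * b * σ) * u) * σ⁻¹ := by rw [h2]
    _ = b * (σ * u * σ⁻¹) := by group

end Cfsg.Agent.Lib.Helper45.CS3
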